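import Cfsg.Agent.Lib.BlockT.Homocyclic
import Cfsg.Agent.Lib.Transfer.Frobenius

/-!
# Sylow 2-subgroups isomorphic to the quaternion group of order 8
-/

set_option autoImplicit false
set_option linter.style.haveILetI false
set_option linter.unusedSectionVars false

namespace Cfsg.Agent.Lib.BlockT.Q8

open QuaternionGroup Cfsg.Agent.Lib.BlockT.Homocyclic

theorem q8_inv : ∀ x y : QuaternionGroup 2, x ^ 2 = 1 → x ≠ 1 → y ^ 2 = 1 → y ≠ 1 → x = y := by
  decide

theorem q8_pow4 : ∀ x : QuaternionGroup 2, x ^ 4 = 1 := by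
  decide

theorem q8_sq_or : ∀ x : QuaternionGroup 2, x ^ 2 = 1 ∨ x = a 1 ∨ x = a 3 ∨ x = xa 0 ∨ x = xa 1 ∨ x = xa 2 ∨ x = xa 3 := by
  decide

theorem q8_sq : ∀ x : QuaternionGroup 2, x ^ 2 = 1 → x = 1 ∨ x = a 2 := by
  decide

theorem q8_inv3 : ∀ x : QuaternionGroup 2, x ^ 3 = x⁻¹ := by
  decide

variable {G : Type*} [Group G]

/-- An element of odd order inverting or fixing `u` fixes it. -/
theorem conj_eq_of_odd {g u : G} {o : ℕ} (ho : Odd o) (hgo : g ^ o = 1)
    (h : g * u * g⁻¹ = u ∨ g * u * g⁻¹ = u⁻¹) : g * u * g⁻¹ = u := by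
  rcases h with h | h
  · exact h
  have h1 : g * u⁻¹ * g⁻¹ = u := by
    have e0 : g * u⁻¹ * g⁻¹ = (g * u * g⁻¹)⁻¹ := by group
    rw [e0, h, inv_inv]
  have h2 : ∀ k : ℕ, g ^ (2 * k) * u * (g ^ (2 * k))⁻¹ = u := by
    intro k
    induction k with
    | zero => simp
    | succ k ih =>
      have e : g ^ (2 * (k + 1)) * u * (g ^ (2 * (k + 1)))⁻¹
          = g ^ (2 * k) * (g * (g * u * g⁻¹) * g⁻¹) * (g ^ (2 * k))⁻¹ := by
        rw [show 2 * (k + 1) = 2 * k + 1 + 1 by ring, pow_succ, pow_succ]
        group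
      rw [e, h, h1, ih]
  obtain ⟨r, rfl⟩ := ho
  have h3 : u = u⁻¹ := by
    have e : g ^ (2 * r + 1) * u * (g ^ (2 * r + 1))⁻¹ = g ^ (2 * r) * (g * u * g⁻¹) * (g ^ (2 * r))⁻¹ := by
      rw [pow_succ]
      group
    rw [hgo, h] at e
    simp only [one_mul, inv_one, mul_one] at e
    have e2 : g ^ (2 * r) * u⁻¹ * (g ^ (2 * r))⁻¹ = (g ^ (2 * r) * u * (g ^ (2 * r))⁻¹)⁻¹ := by
      group
    rw [e2, h2] at e
    exact e
  rw [h]
  exact h3.symm

/-- In a cyclic group of order four the elements of order four are the generator and its inverse. -/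
theorem eq_or_eq_inv_of_mem_zpowers {x y : G} (hx4 : x ^ 4 = 1) (hx2 : x ^ 2 ≠ 1)
    (hy2 : y ^ 2 ≠ 1) (hy : y ∈ Subgroup.zpowers x) : y = x ∨ y = x⁻¹ := by
  have hord : orderOf x = 4 := by
    have := orderOf_eq_prime_pow (p := 2) (n := 1) (x := x) (by simpa using hx2) (by simpa using hx4)
    simpa using this
  have hfin : IsOfFinOrder x := isOfFinOrder_iff_pow_eq_one.mpr ⟨4, by norm_num, hx4⟩
  obtain ⟨k, hk⟩ := Subgroup.mem_zpowers_iff.mp hy
  have hk2 : x ^ ((k % 4 : ℤ)) = y := by
    have := zpow_mod_orderOf x k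
    rw [hord] at this
    rw [← hk]
    exact_mod_cast this
  have hlo : 0 ≤ k % 4 := Int.emod_nonneg _ (by norm_num)
  have hhi : k % 4 < 4 := Int.emod_lt_of_pos _ (by norm_num)
  generalize k % 4 = t at hk2 hlo hhi
  interval_cases t
  · exfalso
    apply hy2
    rw [← hk2]
    simp
  · left
    rw [← hk2]
    simp
  · exfalso
    apply hy2
    rw [← hk2]
    rw [← zpow_natCast, ← zpow_mul]
    have : x ^ ((2 : ℤ) * ((2 : ℕ) : ℤ)) = x ^ 4 := by
      norm_cast
    rw [this, hx4]
  · right
    rw [← hk2]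
    have h3 : x ^ (3 : ℤ) * x = 1 := by
      rw [← zpow_add_one]
      norm_cast
    exact eq_inv_of_mul_eq_one_left h3

section S

variable [Finite G] {S : Sylow 2 G} (e : (S : Subgroup G) ≃* QuaternionGroup 2)

include e

theorem sq_unique {x y : G} (hx : x ∈ (S : Subgroup G)) (hy : y ∈ (S : Subgroup G)) (hx2 : x ^ 2 = 1)
    (hx1 : x ≠ 1) (hy2 : y ^ 2 = 1) (hy1 : y ≠ 1) : x = y := by
  have h1 : e ⟨x, hx⟩ ^ 2 = 1 := by
    rw [← map_pow]
    have : (⟨x, hx⟩ : (S : Subgroup G)) ^ 2 = 1 := Subtype.ext hx2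
    rw [this, map_one]
  have h2 : e ⟨y, hy⟩ ^ 2 = 1 := by
    rw [← map_pow]
    have : (⟨y, hy⟩ : (S : Subgroup G)) ^ 2 = 1 := Subtype.ext hy2
    rw [this, map_one]
  have h3 : e ⟨x, hx⟩ ≠ 1 := by
    intro h
    apply hx1
    have := e.injective (h.trans (map_one e).symm)
    exact congrArg Subtype.val this
  have h4 : e ⟨y, hy⟩ ≠ 1 := by
    intro h
    apply hy1
    have := e.injective (h.trans (map_one e).symm)
    exact congrArg Subtype.val this
  have := e.injective (q8_inv _ _ h1 h3 h2 h4)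
  exact congrArg Subtype.val this

theorem pow4 {x : G} (hx : x ∈ (S : Subgroup G)) : x ^ 4 = 1 := by
  have h1 : e (⟨x, hx⟩ ^ 4) = 1 := by
    rw [map_pow, q8_pow4]
  have := e.injective (h1.trans (map_one e).symm)
  exact congrArg Subtype.val this

theorem card_S : Nat.card (S : Subgroup G) = 8 := by
  rw [Nat.card_congr e.toEquiv, Nat.card_eq_fintype_card, QuaternionGroup.card]

/-- An element of odd order normalizing a proper subgroup of `S` centralizes it. -/
theorem mem_centralizer_of_ne {Q : Subgroup G} (hQS : Q ≤ (S : Subgroup G)) (hne : Q ≠ (S : Subgroup G))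
    {g : G} (hg : g ∈ Subgroup.normalizer (Q : Set G)) (ho : Odd (orderOf g)) :
    g ∈ Subgroup.centralizer (Q : Set G) := by
  rw [Cfsg.Agent.Lib.Transfer.Frobenius.mem_centralizer_iff']
  intro u hu
  have hv : g * u * g⁻¹ ∈ Q := (Subgroup.mem_normalizer_iff.mp hg u).mp hu
  by_cases hu2 : u ^ 2 = 1
  · by_cases hu1 : u = 1
    · simp [hu1]
    · have hv2 : (g * u * g⁻¹) ^ 2 = 1 := by
        have : (g * u * g⁻¹) ^ 2 = g * u ^ 2 * g⁻¹ := by
          rw [sq, sq]
          group
        rw [this, hu2]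
        group
      have hv1 : g * u * g⁻¹ ≠ 1 := by
        intro h
        apply hu1
        have : u = g⁻¹ * (g * u * g⁻¹) * g := by group
        rw [this, h]
        group
      exact sq_unique e (hQS hv) (hQS hu) hv2 hv1 hu2 hu1
  · have hu4 := pow4 e (hQS hu)
    have hord : orderOf u = 4 := by
      have := orderOf_eq_prime_pow (p := 2) (n := 1) (x := u) (by simpa using hu2) (by simpa using hu4)
      simpa using this
    have hle : Subgroup.zpowers u ≤ Q := by
      rw [Subgroup.zpowers_le]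
      exact hu
    have hcardz : Nat.card (Subgroup.zpowers u) = 4 := by
      rw [Nat.card_zpowers, hord]
    have hcardQ : Nat.card Q ∣ 8 := by
      rw [← card_S e]
      exact Subgroup.card_dvd_of_le hQS
    have hcardQ8 : Nat.card Q ≠ 8 := by
      intro h
      apply hne
      apply Subgroup.eq_of_le_of_card_ge hQS
      rw [card_S e, h]
    have hcardQ4 : Nat.card Q ≤ 4 := by
      have h1 := Nat.le_of_dvd (by norm_num) hcardQ
      generalize Nat.card Q = r at h1 hcardQ hcardQ8
      interval_cases r <;> omega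
    have hQz : Subgroup.zpowers u = Q := by
      apply Subgroup.eq_of_le_of_card_ge hle
      rw [hcardz]
      exact hcardQ4
    have hv3 : g * u * g⁻¹ ∈ Subgroup.zpowers u := by
      rw [hQz]
      exact hv
    have hv4 : (g * u * g⁻¹) ^ 2 ≠ 1 := by
      intro h
      apply hu2
      have : (g * u * g⁻¹) ^ 2 = g * u ^ 2 * g⁻¹ := by
        rw [sq, sq]
        group
      rw [this] at h
      have h2 : u ^ 2 = g⁻¹ * (g * u ^ 2 * g⁻¹) * g := by group
      rw [h2, h]
      group
    exact conj_eq_of_odd ho (pow_orderOf_eq_one g) (eq_or_eq_inv_of_mem_zpowers hu4 hu2 hv4 hv3)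

/-- The element `x` of `S` with `x^2 ≠ 1`: its cyclic group has order four. -/
theorem card_zpowers_of_sq_ne {x : G} (hx : x ∈ (S : Subgroup G)) (hx2 : x ^ 2 ≠ 1) :
    Nat.card (Subgroup.zpowers x) = 4 := by
  have hord : orderOf x = 4 := by
    have := orderOf_eq_prime_pow (p := 2) (n := 1) (x := x) (by simpa using hx2) (by simpa using pow4 e hx)
    simpa using this
  rw [Nat.card_zpowers, hord]

/-- A subgroup of order four of `S` is cyclic. -/
theorem exists_eq_zpowers {A : Subgroup G} (hA : A ≤ (S : Subgroup G)) (hA4 : Nat.card A = 4) :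
    ∃ x ∈ A, x ^ 2 ≠ 1 ∧ A = Subgroup.zpowers x := by
  classical
  have hex : ∃ x ∈ A, x ^ 2 ≠ 1 := by
    by_contra hcon
    push Not at hcon
    -- all elements of `A` have square one
    have h1 : ∃ z ∈ A, z ≠ 1 := by
      by_contra h
      push Not at h
      have : A = ⊥ := (Subgroup.eq_bot_iff_forall A).mpr h
      rw [this, Subgroup.card_bot] at hA4
      omega
    obtain ⟨z, hz, hz1⟩ := h1
    have h2 : ∀ x ∈ A, x = 1 ∨ x = z := by
      intro x hx
      by_cases hx1 : x = 1
      · exact Or.inl hx1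
      · exact Or.inr (sq_unique e (hA hx) (hA hz) (hcon x hx) hx1 (hcon z hz) hz1)
    have h3 : Nat.card A ≤ 2 := by
      have hinj : Function.Injective (fun y : A => (if (y : G) = 1 then (0 : Fin 2) else 1)) := by
        intro a b hab
        apply Subtype.ext
        rcases h2 a a.2 with ha | ha <;> rcases h2 b b.2 with hb | hb
        · rw [ha, hb]
        · exfalso
          simp only [ha, hb, if_neg hz1] at hab
          simp at hab
        · exfalso
          simp only [ha, hb, if_neg hz1] at hab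
          simp at hab
        · rw [ha, hb]
      have := Nat.card_le_card_of_injective _ hinj
      simpa using this
    omega
  obtain ⟨x, hx, hx2⟩ := hex
  refine ⟨x, hx, hx2, ?_⟩
  symm
  apply Subgroup.eq_of_le_of_card_ge (Subgroup.zpowers_le.mpr hx)
  rw [card_zpowers_of_sq_ne e (hA hx) hx2, hA4]

/-- The subgroups of order four of `S`. -/
def Ord4 (S : Sylow 2 G) : Type _ := {A : Subgroup G // A ≤ (S : Subgroup G) ∧ Nat.card A = 4}

/-- There are exactly three subgroups of order four. -/
theorem card_ord4 : Nat.card (Ord4 S) = 3 := by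
  classical
  let f : QuaternionGroup 2 → G := fun q => (e.symm q : G)
  have hfS : ∀ q, f q ∈ (S : Subgroup G) := fun q => (e.symm q).2
  have hfmul : ∀ q, (f q)⁻¹ = f q⁻¹ := by
    intro q
    simp [f]
  have hfsq : ∀ q : QuaternionGroup 2, q ^ 2 ≠ 1 → f q ^ 2 ≠ 1 := by
    intro q hq h
    apply hq
    apply e.symm.injective
    apply Subtype.ext
    simpa [f] using h
  have hfinj : ∀ q r, f q = f r → q = r := by
    intro q r h
    exact e.symm.injective (Subtype.ext h)
  have hval : ∀ y : (S : Subgroup G), f (e y) = y := by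
    intro y
    simp [f]
  set I : QuaternionGroup 2 → Subgroup G := fun q => Subgroup.zpowers (f q) with hI
  have hmem : ∀ q : QuaternionGroup 2, q ^ 2 ≠ 1 →
      I q ≤ (S : Subgroup G) ∧ Nat.card (I q) = 4 := by
    intro q hq
    exact ⟨Subgroup.zpowers_le.mpr (hfS q), card_zpowers_of_sq_ne e (hfS q) (hfsq q hq)⟩
  have hsets : {A : Subgroup G | A ≤ (S : Subgroup G) ∧ Nat.card A = 4} = {I (a 1), I (xa 0), I (xa 1)} := by
    ext A
    constructor
    · rintro ⟨hA, hA4⟩
      obtain ⟨x, hx, hx2, rfl⟩ := exists_eq_zpowers e hA hA4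
      have hxS : x ∈ (S : Subgroup G) := hA hx
      have hex : x = f (e ⟨x, hxS⟩) := (hval ⟨x, hxS⟩).symm
      have hq2 : (e ⟨x, hxS⟩) ^ 2 ≠ 1 := by
        intro h
        apply hx2
        have h2 : e (⟨x, hxS⟩ ^ 2) = 1 := by rw [map_pow, h]
        have := e.injective (h2.trans (map_one e).symm)
        exact congrArg Subtype.val this
      rcases q8_sq_or (e ⟨x, hxS⟩) with h | h | h | h | h | h | h
      · exact absurd h hq2
      · rw [hex, h]
        simp [I]
      · rw [hex, h]
        have h3 : (a 3 : QuaternionGroup 2) = (a 1)⁻¹ := by decide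
        rw [h3, ← hfmul, Subgroup.zpowers_inv]
        simp [I]
      · rw [hex, h]
        simp [I]
      · rw [hex, h]
        simp [I]
      · rw [hex, h]
        have h3 : (xa 2 : QuaternionGroup 2) = (xa 0)⁻¹ := by decide
        rw [h3, ← hfmul, Subgroup.zpowers_inv]
        simp [I]
      · rw [hex, h]
        have h3 : (xa 3 : QuaternionGroup 2) = (xa 1)⁻¹ := by decide
        rw [h3, ← hfmul, Subgroup.zpowers_inv]
        simp [I]
    · intro hA
      rcases hA with rfl | rfl | rfl
      · exact hmem _ (by decide)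
      · exact hmem _ (by decide)
      · exact hmem _ (by decide)
  have hne : ∀ q r : QuaternionGroup 2, q ^ 2 ≠ 1 → r ^ 2 ≠ 1 → r ≠ q → r ≠ q⁻¹ → I q ≠ I r := by
    intro q r hq hr h1 h2 h
    have h3 : f r ∈ Subgroup.zpowers (f q) := by
      show f r ∈ I q
      rw [h]
      exact Subgroup.mem_zpowers _
    rcases eq_or_eq_inv_of_mem_zpowers (pow4 e (hfS q)) (hfsq q hq) (hfsq r hr) h3 with h4 | h4
    · exact h1 (hfinj _ _ h4)
    · rw [hfmul] at h4
      exact h2 (hfinj _ _ h4)
  have hcard : Set.ncard {A : Subgroup G | A ≤ (S : Subgroup G) ∧ Nat.card A = 4} = 3 := by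
    rw [Set.ncard_eq_three]
    refine ⟨_, _, _, ?_, ?_, ?_, hsets⟩
    · exact hne _ _ (by decide) (by decide) (by decide) (by decide)
    · exact hne _ _ (by decide) (by decide) (by decide) (by decide)
    · exact hne _ _ (by decide) (by decide) (by decide) (by decide)
  rw [← hcard]
  exact (Nat.card_coe_set_eq _)

omit e [Finite G] in
theorem map_conj_map_conj (g h : G) (A : Subgroup G) :
    (A.map (MulAut.conj h).toMonoidHom).map (MulAut.conj g).toMonoidHom
      = A.map (MulAut.conj (g * h)).toMonoidHom := by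
  ext x
  constructor
  · rintro ⟨_, ⟨y, hy, rfl⟩, rfl⟩
    exact ⟨y, hy, by simp [mul_assoc]⟩
  · rintro ⟨y, hy, rfl⟩
    exact ⟨_, ⟨y, hy, rfl⟩, by simp [mul_assoc]⟩

omit e [Finite G] in
theorem map_conj_one (A : Subgroup G) : A.map (MulAut.conj (1 : G)).toMonoidHom = A := by
  ext x
  simp [Subgroup.mem_map]

/-- Conjugation by an element of the normalizer as a permutation of the subgroups of order four. -/
noncomputable def conjOrd4 (g : G) (hg : g ∈ Subgroup.normalizer ((S : Subgroup G) : Set G)) : Equiv.Perm (Ord4 S) where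
  toFun A := ⟨A.1.map (MulAut.conj g).toMonoidHom, by
      rintro _ ⟨x, hx, rfl⟩
      exact (Subgroup.mem_normalizer_iff.mp hg x).mp (A.2.1 hx),
      (Subgroup.card_map_of_injective (MulAut.conj g).injective).trans A.2.2⟩
  invFun A := ⟨A.1.map (MulAut.conj g⁻¹).toMonoidHom, by
      rintro _ ⟨x, hx, rfl⟩
      exact (Subgroup.mem_normalizer_iff.mp (Subgroup.inv_mem _ hg) x).mp (A.2.1 hx),
      (Subgroup.card_map_of_injective (MulAut.conj g⁻¹).injective).trans A.2.2⟩
  left_inv A := by
    apply Subtype.ext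
    show (A.1.map (MulAut.conj g).toMonoidHom).map (MulAut.conj g⁻¹).toMonoidHom = A.1
    rw [map_conj_map_conj, inv_mul_cancel, map_conj_one]
  right_inv A := by
    apply Subtype.ext
    show (A.1.map (MulAut.conj g⁻¹).toMonoidHom).map (MulAut.conj g).toMonoidHom = A.1
    rw [map_conj_map_conj, mul_inv_cancel, map_conj_one]

omit e in
theorem conjOrd4_pow (g : G) (hg : g ∈ Subgroup.normalizer ((S : Subgroup G) : Set G)) (j : ℕ) (A : Ord4 S) :
    ((conjOrd4 g hg ^ j) A).1 = A.1.map (MulAut.conj (g ^ j)).toMonoidHom := by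
  induction j with
  | zero =>
    rw [pow_zero, pow_zero, map_conj_one]
    rfl
  | succ j ih =>
    rw [pow_succ', Equiv.Perm.mul_apply]
    show ((((conjOrd4 g hg ^ j) A).1).map (MulAut.conj g).toMonoidHom) = _
    rw [ih, map_conj_map_conj, pow_succ']

/-- The main theorem: if `S` has no normal complement, all subgroups of order four of `S` are
conjugate in the normalizer. -/
theorem exists_conj_of_no_complement
    (hnc : ∀ N : Subgroup G, N.Normal → ¬ Subgroup.IsComplement' N (S : Subgroup G))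
    (A B : Subgroup G) (hA : A ≤ S) (hB : B ≤ S) (hA4 : Nat.card A = 4) (hB4 : Nat.card B = 4) :
    ∃ n ∈ Subgroup.normalizer ((S : Subgroup G) : Set G), B = A.map (MulAut.conj n).toMonoidHom := by
  classical
  haveI : Fact (Nat.Prime 2) := ⟨Nat.prime_two⟩
  have h1 : ¬ ∀ Q : Subgroup G, Q ≤ (S : Subgroup G) → ∀ g ∈ Subgroup.normalizer (Q : Set G),
      Nat.Coprime (orderOf g) 2 → g ∈ Subgroup.centralizer (Q : Set G) := by
    intro h
    obtain ⟨N, hN, hc⟩ := (Cfsg.Agent.Lib.Transfer.Frobenius.exists_normal_complement_iff S).mpr h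
    exact hnc N hN hc
  push Not at h1
  obtain ⟨Q, hQS, g, hgN, hcop, hgC⟩ := h1
  have ho : Odd (orderOf g) := Nat.coprime_two_right.mp hcop
  have hQeq : Q = (S : Subgroup G) := by
    by_contra hne
    exact hgC (mem_centralizer_of_ne e hQS hne hgN ho)
  subst hQeq
  let σ := conjOrd4 (S := S) g hgN
  have hσ : σ ≠ 1 := by
    intro hσ1
    apply hgC
    have hfix : ∀ A : Ord4 S, A.1.map (MulAut.conj g).toMonoidHom = A.1 := by
      intro A
      have := congrArg (fun τ : Equiv.Perm (Ord4 S) => (τ A).1) hσ1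
      exact this
    rw [Cfsg.Agent.Lib.Transfer.Frobenius.mem_centralizer_iff']
    intro u hu
    by_cases hu2 : u ^ 2 = 1
    · by_cases hu1 : u = 1
      · simp [hu1]
      · have hv2 : (g * u * g⁻¹) ^ 2 = 1 := by
          have : (g * u * g⁻¹) ^ 2 = g * u ^ 2 * g⁻¹ := by
            rw [sq, sq]
            group
          rw [this, hu2]
          group
        have hv1 : g * u * g⁻¹ ≠ 1 := by
          intro h
          apply hu1
          have : u = g⁻¹ * (g * u * g⁻¹) * g := by group
          rw [this, h]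
          group
        exact sq_unique e ((Subgroup.mem_normalizer_iff.mp hgN u).mp hu) hu hv2 hv1 hu2 hu1
    · let Z : Ord4 S := ⟨Subgroup.zpowers u, Subgroup.zpowers_le.mpr hu, card_zpowers_of_sq_ne e hu hu2⟩
      have hne : Z.1 ≠ (S : Subgroup G) := by
        intro h
        have h2 := Z.2.2
        rw [h, card_S e] at h2
        omega
      have hN : g ∈ Subgroup.normalizer (Z.1 : Set G) := by
        have h3 := hfix Z
        rw [Subgroup.mem_normalizer_iff]
        intro x
        constructor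
        · intro hx
          rw [← h3]
          exact ⟨x, hx, by simp⟩
        · intro hx
          rw [← h3] at hx
          obtain ⟨y, hy, hyx⟩ := hx
          have : y = x := by
            have h4 : g * y * g⁻¹ = g * x * g⁻¹ := by simpa using hyx
            have h5 := mul_right_cancel h4
            exact mul_left_cancel h5
          rw [← this]
          exact hy
      have hC := mem_centralizer_of_ne e Z.2.1 hne hN ho
      exact (Cfsg.Agent.Lib.Transfer.Frobenius.mem_centralizer_iff'.mp hC) u (Subgroup.mem_zpowers u)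
  have hσo : σ ^ orderOf g = 1 := by
    ext Y : 1
    apply Subtype.ext
    rw [conjOrd4_pow, pow_orderOf_eq_one, map_conj_one]
    rfl
  haveI : Finite (Ord4 S) := Nat.finite_of_card_ne_zero (by rw [card_ord4 e]; norm_num)
  obtain ⟨j, hj⟩ := three_points (card_ord4 e) σ hσ ho hσo ⟨A, hA, hA4⟩ ⟨B, hB, hB4⟩
  refine ⟨g ^ j, Subgroup.pow_mem _ hgN j, ?_⟩
  have := conjOrd4_pow (S := S) g hgN j ⟨A, hA, hA4⟩
  rw [← this]
  exact (congrArg Subtype.val hj).symm

end S

end Cfsg.Agent.Lib.BlockT.Q8
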