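import Mathlib
import Cfsg.Agent.Lib.Blocks.Subsection
import Cfsg.Agent.Lib.BlockT.Inflate2
import Cfsg.Agent.Lib.BlockT.Inflate
import Cfsg.Agent.Lib.BlockT.Q8
import Cfsg.Agent.Lib.BlockT.HomoLocal
import Cfsg.Agent.Lib.Blocks.Rank1

/-!
# The principal `2`-block when the Sylow `2`-subgroup is the quaternion group of order `8`

The number of characters of the principal block by sections, and the passage to the quotient
by a central involution.
-/

set_option autoImplicit false
set_option linter.style.haveILetI false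
set_option linter.unusedSectionVars false
set_option linter.unusedVariables false

namespace Cfsg.Agent.Lib.BlockT.Q8Block

open Cfsg
open Cfsg.Agent.Lib.Blocks.Third (oneI oneI_apply isPBlock_principal)
open Cfsg.Agent.Lib.Blocks.Local Cfsg.Agent.Lib.Blocks.Central Cfsg.Agent.Lib.Blocks.PPart
open Cfsg.Agent.Lib.Char.Basic Cfsg.Agent.Lib.Char.Ortho Cfsg.Agent.Lib.Char.Complete
open Cfsg.Agent.Lib.Char.Linear
open Cfsg.Agent.Lib.BlockT.HomoLocal (mem_of_odd)
open scoped ComplexConjugate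

section Sections

variable {Γ : Type*} [Group Γ] [Fintype Γ] [Fintype (IrrCharacter Γ)] (M : Ideal AlgInt)

open scoped Classical in
/-- The sum of the squared norms of the characters of the principal block. -/
noncomputable def fB (g : Γ) : ℂ :=
  ∑ ζ : IrrCharacter Γ, if ζ ∈ principalBlock M Γ then (ζ : Γ → ℂ) g * conj ((ζ : Γ → ℂ) g) else 0

open scoped Classical in
/-- The regular part of the sum of squared norms. -/
noncomputable def LL (Γ : Type*) [Group Γ] [Fintype Γ] [Fintype (IrrCharacter Γ)] (M : Ideal AlgInt) : ℂ :=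
  (Nat.card Γ : ℂ)⁻¹ * ∑ g : Γ, if 2 ∣ orderOf g then 0 else fB M g

theorem fB_class : IsClassFunction Γ (fB M) := by
  classical
  intro g h
  simp only [fB]
  refine Fintype.sum_congr _ _ fun ζ => ?_
  rw [isClassFunction_of_isIrrCharacter ζ.2 g h]

theorem card_eq : (Nat.card (principalBlock M Γ) : ℂ) = (Nat.card Γ : ℂ)⁻¹ * ∑ g : Γ, fB M g := by
  classical
  have h1 : ∀ ζ : IrrCharacter Γ, (Nat.card Γ : ℂ)⁻¹ * ∑ g : Γ, (ζ : Γ → ℂ) g * conj ((ζ : Γ → ℂ) g) = 1 := by
    intro ζ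
    have := classInner_irr ζ.2 ζ.2
    rw [classInner_def] at this
    rw [this, if_pos rfl]
  simp only [fB]
  rw [Finset.sum_comm, Finset.mul_sum]
  have h2 : ∀ ζ : IrrCharacter Γ, (Nat.card Γ : ℂ)⁻¹ * ∑ g : Γ,
      (if ζ ∈ principalBlock M Γ then (ζ : Γ → ℂ) g * conj ((ζ : Γ → ℂ) g) else 0) =
      if ζ ∈ principalBlock M Γ then 1 else 0 := by
    intro ζ
    split_ifs with hζ
    · exact h1 ζ
    · simp
  simp only [h2]
  rw [Finset.sum_boole, Nat.card_eq_fintype_card, Fintype.card_subtype]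

open scoped Classical in
/-- The section of a central element. -/
theorem section_central {x : Γ} (hx : ∀ g : Γ, g * x = x * g) (F : Γ → ℂ) :
    (Nat.card (Subgroup.centralizer ({x} : Set Γ)) : ℂ)⁻¹ *
      (∑ y : Subgroup.centralizer ({x} : Set Γ), if 2 ∣ orderOf y then 0 else F (y : Γ)) =
    (Nat.card Γ : ℂ)⁻¹ * ∑ g : Γ, if 2 ∣ orderOf g then 0 else F g := by
  have hmem : ∀ g : Γ, g ∈ Subgroup.centralizer ({x} : Set Γ) := fun g =>
    Subgroup.mem_centralizer_singleton_iff.mpr (hx g)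
  let E : Subgroup.centralizer ({x} : Set Γ) ≃ Γ :=
    { toFun := fun y => y
      invFun := fun g => ⟨g, hmem g⟩
      left_inv := fun _ => rfl
      right_inv := fun _ => rfl }
  have h1 : Nat.card (Subgroup.centralizer ({x} : Set Γ)) = Nat.card Γ := Nat.card_congr E
  rw [h1]
  congr 1
  refine Fintype.sum_equiv E _ _ fun y => ?_
  change (if 2 ∣ orderOf y then 0 else F (y : Γ)) = if 2 ∣ orderOf (y : Γ) then 0 else F (y : Γ)
  rw [Subgroup.orderOf_coe]

open scoped Classical in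
/-- The section of a `2`-element with `2`-nilpotent centralizer. -/
theorem section_nilp (hM : IsPModular 2 M) {x : Γ} (hx : ∃ k : ℕ, orderOf x = 2 ^ k)
    (hcore : ∃ k : ℕ, (pPrimeCore 2 (Subgroup.centralizer ({x} : Set Γ))).index = 2 ^ k) :
    (Nat.card (Subgroup.centralizer ({x} : Set Γ)) : ℂ)⁻¹ *
      (∑ y : Subgroup.centralizer ({x} : Set Γ), if 2 ∣ orderOf y then 0 else fB M (x * (y : Γ))) = 1 := by
  haveI : Fact (Nat.Prime 2) := ⟨Nat.prime_two⟩
  haveI := isPrime_of_pModular hM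
  set C := Subgroup.centralizer ({x} : Set Γ) with hC
  set O := pPrimeCore 2 C with hO
  obtain ⟨k, hk⟩ := hcore
  haveI hON : O.Normal := pPrimeCore_normal _ _
  have hcop : (Nat.card O).Coprime 2 := Cfsg.Agent.Lib.Core.Basic.pPrimeCore_coprime
  have hreg : ∀ y : C, 2 ∣ orderOf y ↔ y ∉ O := by
    intro y
    constructor
    · intro hd hy
      have h1 : orderOf (⟨y, hy⟩ : O) ∣ Nat.card O := orderOf_dvd_natCard _
      rw [Subgroup.orderOf_mk] at h1
      have h2 := hd.trans h1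
      rw [Nat.coprime_comm, Nat.Prime.coprime_iff_not_dvd Nat.prime_two] at hcop
      exact hcop h2
    · intro hy
      by_contra hd
      exact hy (mem_of_odd hk hd)
  have hval : ∀ y ∈ O, fB M (x * (y : Γ)) = fB M x := by
    intro y hy
    simp only [fB]
    refine Fintype.sum_congr _ _ fun ζ => ?_
    split_ifs with hζ
    · rw [Cfsg.Agent.Lib.Blocks.General.zstar hM hx hy hζ]
    · rfl
  have hsum : (∑ y : C, if 2 ∣ orderOf y then 0 else fB M (x * (y : Γ))) = (Nat.card O : ℂ) * fB M x := by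
    have h1 : ∀ y : C, (if 2 ∣ orderOf y then 0 else fB M (x * (y : Γ))) =
        if y ∈ O then fB M x else 0 := by
      intro y
      by_cases hy : y ∈ O
      · rw [if_pos hy, if_neg (fun h => (hreg y).mp h hy), hval y hy]
      · rw [if_neg hy, if_pos ((hreg y).mpr hy)]
    simp only [h1]
    rw [Finset.sum_ite, Finset.sum_const_zero, add_zero, Finset.sum_const, nsmul_eq_mul]
    congr 2
    rw [Nat.card_eq_fintype_card, Fintype.card_subtype]
  have hnorm := (Cfsg.Agent.Lib.Blocks.NormSum.principal_norm_sum hM x hx (1 : C) (by simp)).2 ⟨k, hk⟩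
  have hfB : fB M x = ((2 ^ (Nat.card C).factorization 2 : ℕ) : ℂ) := by
    have h2 : ((∑ᶠ ζ ∈ principalBlock M Γ, ‖(ζ : Γ → ℂ) (x * ((1 : C) : Γ))‖ ^ 2 : ℝ) : ℂ) =
        ((2 ^ (Nat.card C).factorization 2 : ℕ) : ℂ) := by
      rw [hnorm]
      push_cast
      rfl
    rw [← h2, Cfsg.Agent.Lib.Blocks.Rank1.finsum_mem_eq_sum_ite', Complex.ofReal_sum]
    simp only [fB]
    refine Fintype.sum_congr _ _ fun ζ => ?_
    split_ifs with hζ
    · rw [Subgroup.coe_one, mul_one, Complex.mul_conj']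
      push_cast
      rfl
    · simp
  have hidx : O.index = 2 ^ (Nat.card C).factorization 2 := by
    have h1 := O.card_mul_index
    rw [hk] at h1
    have h2 : (Nat.card C).factorization 2 = k := by
      rw [← h1, Nat.factorization_mul (Nat.card_pos).ne' (by positivity), Finsupp.add_apply,
        Nat.factorization_pow, Finsupp.smul_apply, Nat.prime_two.factorization_self]
      have h3 : (Nat.card O).factorization 2 = 0 := by
        apply Nat.factorization_eq_zero_of_not_dvd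
        rw [Nat.coprime_comm, Nat.Prime.coprime_iff_not_dvd Nat.prime_two] at hcop
        exact hcop
      rw [h3]
      simp
    rw [h2, hk]
  rw [hsum, hfB, ← hidx]
  have h1 : (Nat.card O : ℂ) * (O.index : ℂ) = (Nat.card C : ℂ) := by
    exact_mod_cast O.card_mul_index
  rw [h1]
  exact inv_mul_cancel₀ (Nat.cast_ne_zero.mpr Nat.card_pos.ne')

end Sections

section Central

variable {G : Type*} [Group G] [Fintype G] [Fintype (IrrCharacter G)]

/-- A central element acts as a scalar. -/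
theorem val_central {z : G} (hz : ∀ g : G, g * z = z * g) (ζ : IrrCharacter G) (g : G) :
    (ζ : G → ℂ) (z * g) * (ζ : G → ℂ) 1 = (ζ : G → ℂ) z * (ζ : G → ℂ) g := by
  classical
  have h1 := Cfsg.Agent.Lib.Blocks.Weak.sum_conj_mul ζ g z
  have h2 : ∀ h : G, h * z * h⁻¹ = z := by
    intro h
    rw [hz h]
    group
  simp only [h2] at h1
  have h3 : ∑ _h : G, (ζ : G → ℂ) (g * z) = (Nat.card G : ℂ) * (ζ : G → ℂ) (z * g) := by
    rw [Finset.sum_const, Finset.card_univ, nsmul_eq_mul, Nat.card_eq_fintype_card, hz g]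
  rw [h3] at h1
  have hG : (Nat.card G : ℂ) ≠ 0 := Nat.cast_ne_zero.mpr Nat.card_pos.ne'
  have hone := irr_one_ne_zero ζ.2
  field_simp at h1
  linear_combination h1

theorem sign_central {z : G} (hz : ∀ g : G, g * z = z * g) (hz2 : z * z = 1) (ζ : IrrCharacter G) :
    (ζ : G → ℂ) z = (ζ : G → ℂ) 1 ∨ (ζ : G → ℂ) z = -(ζ : G → ℂ) 1 := by
  have h1 := val_central hz ζ z
  rw [hz2] at h1
  have h2 : ((ζ : G → ℂ) z - (ζ : G → ℂ) 1) * ((ζ : G → ℂ) z + (ζ : G → ℂ) 1) = 0 := by
    linear_combination -h1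
  rcases mul_eq_zero.mp h2 with h | h
  · left
    exact sub_eq_zero.mp h
  · right
    exact eq_neg_of_add_eq_zero_left h

theorem val_mul_of_pos {z : G} (hz : ∀ g : G, g * z = z * g) {ζ : IrrCharacter G}
    (h : (ζ : G → ℂ) z = (ζ : G → ℂ) 1) (g : G) : (ζ : G → ℂ) (z * g) = (ζ : G → ℂ) g := by
  have h1 := val_central hz ζ g
  rw [h] at h1
  have hone := irr_one_ne_zero ζ.2
  apply mul_right_cancel₀ hone
  rw [h1, mul_comm]

theorem val_mul_of_neg {z : G} (hz : ∀ g : G, g * z = z * g) {ζ : IrrCharacter G}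
    (h : (ζ : G → ℂ) z = -(ζ : G → ℂ) 1) (g : G) : (ζ : G → ℂ) (z * g) = -(ζ : G → ℂ) g := by
  have h1 := val_central hz ζ g
  rw [h] at h1
  have hone := irr_one_ne_zero ζ.2
  apply mul_right_cancel₀ hone
  rw [h1]
  ring

/-- The squared norm sum is unchanged by a central involution. -/
theorem fB_central (M : Ideal AlgInt) {z : G} (hz : ∀ g : G, g * z = z * g) (hz2 : z * z = 1) (g : G) :
    fB M (z * g) = fB M g := by
  classical
  simp only [fB]
  refine Fintype.sum_congr _ _ fun ζ => ?_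
  split_ifs
  · rcases sign_central hz hz2 ζ with h | h
    · rw [val_mul_of_pos hz h]
    · rw [val_mul_of_neg hz h, map_neg]
      ring
  · rfl

variable {M : Ideal AlgInt}

open scoped Classical in
/-- The regular values of the sum over the characters with `z` in the kernel. -/
theorem fB_eq_two_mul (hM : IsPModular 2 M) {z : G} (hz : ∀ g : G, g * z = z * g) (hz2 : z * z = 1)
    (hz1 : z ≠ 1) {y : G} (hy : ¬ 2 ∣ orderOf y) :
    fB M y = 2 * ∑ ζ : IrrCharacter G, if ζ ∈ principalBlock M G ∧ (ζ : G → ℂ) z = (ζ : G → ℂ) 1 then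
      (ζ : G → ℂ) y * conj ((ζ : G → ℂ) y) else 0 := by
  haveI : Fact (Nat.Prime 2) := ⟨Nat.prime_two⟩
  haveI := isPrime_of_pModular hM
  have hzo : orderOf z = 2 := orderOf_eq_prime (by rw [sq, hz2]) hz1
  have hg : IsPPart 2 (z * y) z := ⟨y, rfl, (hz y).symm, ⟨1, by rw [hzo, pow_one]⟩, hy⟩
  have hh : IsPPart 2 y 1 := ⟨y, one_mul y, Commute.one_left y, ⟨0, by simp⟩, hy⟩
  have hn : ¬ IsConj z 1 := by
    rw [isConj_comm, isConj_one_right]
    exact hz1
  have h1 := Cfsg.Agent.Lib.Blocks.Heights.block_orthogonality_section hM hg hh hn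
    (isPBlock_principal (G := G) M)
  rw [Cfsg.Agent.Lib.Blocks.Rank1.finsum_mem_eq_sum_ite'] at h1
  have h2 : fB M y = fB M y + ∑ ζ : IrrCharacter G, if ζ ∈ principalBlock M G then
      (ζ : G → ℂ) (z * y) * (ζ : G → ℂ) y⁻¹ else 0 := by
    rw [h1, add_zero]
  rw [h2, fB, ← Finset.sum_add_distrib, Finset.mul_sum]
  refine Fintype.sum_congr _ _ fun ζ => ?_
  by_cases hζ : ζ ∈ principalBlock M G
  · rw [if_pos hζ, if_pos hζ, char_inv_eq_conj (isCharacter_of_isIrrCharacter ζ.2)]
    rcases sign_central hz hz2 ζ with h | h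
    · rw [if_pos ⟨hζ, h⟩, val_mul_of_pos hz h]
      ring
    · by_cases h0 : (ζ : G → ℂ) z = (ζ : G → ℂ) 1
      · rw [if_pos ⟨hζ, h0⟩, val_mul_of_pos hz h0]
        ring
      · rw [if_neg (fun hc => h0 hc.2), val_mul_of_neg hz h]
        ring
  · rw [if_neg hζ, if_neg hζ, if_neg (fun hc => hζ hc.1)]
    simp

end Central

section Quotient

variable {G : Type*} [Group G] [Fintype G] [Fintype (IrrCharacter G)] {M : Ideal AlgInt} {z : G}

theorem mem_zpowers_of_sq {k : G} (hz2 : z * z = 1) (hk : k ∈ Subgroup.zpowers z) : k = 1 ∨ k = z := by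
  obtain ⟨n, rfl⟩ := Subgroup.mem_zpowers_iff.mp hk
  have h2 : z ^ (2 : ℤ) = 1 := by
    rw [zpow_ofNat, sq, hz2]
  rcases Int.even_or_odd' n with ⟨c, rfl | rfl⟩
  · left
    rw [zpow_mul, h2, one_zpow]
  · right
    rw [zpow_add, zpow_mul, h2, one_zpow, one_mul, zpow_one]

variable (hz : ∀ g : G, g * z = z * g) (hzz : z * z = 1) (hz1 : z ≠ 1)

include hz in
theorem normal_zpowers : (Subgroup.zpowers z).Normal := by
  constructor
  intro k hk g
  obtain ⟨n, rfl⟩ := Subgroup.mem_zpowers_iff.mp hk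
  have hc : Commute g (z ^ n) := (show Commute g z from hz g).zpow_right n
  rw [hc.eq, mul_inv_cancel_right]
  exact hk

include hzz hz1 in
theorem card_zpowers' : Nat.card (Subgroup.zpowers z) = 2 := by
  rw [Nat.card_zpowers]
  exact orderOf_eq_prime (by rw [sq, hzz]) hz1

variable [(Subgroup.zpowers z).Normal]

include hz hzz hz1 in
/-- A `2`-regular element of the quotient lifts to a `2`-regular element. -/
theorem exists_regular_lift (w : G ⧸ Subgroup.zpowers z) (hw : ¬ 2 ∣ orderOf w) :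
    ∃ y : G, ¬ 2 ∣ orderOf y ∧ (QuotientGroup.mk y : G ⧸ Subgroup.zpowers z) = w := by
  haveI : Fact (Nat.Prime 2) := ⟨Nat.prime_two⟩
  obtain ⟨g, rfl⟩ := QuotientGroup.mk_surjective w
  obtain ⟨x, y, hxy, hcomm, ⟨k, hk⟩, hy⟩ := exists_pPart_y (p := 2) g
  refine ⟨y, hy, ?_⟩
  have hpp : IsPPart 2 g x := ⟨y, hxy, hcomm, ⟨k, hk⟩, hy⟩
  obtain ⟨j, hj⟩ := Subgroup.mem_zpowers_iff.mp (isPPart_mem_zpowers hpp)
  have h1 : ((QuotientGroup.mk x : G ⧸ Subgroup.zpowers z)) = 1 := by
    apply orderOf_eq_one_iff.mp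
    have hcop : (2 ^ k).Coprime (orderOf (QuotientGroup.mk g : G ⧸ Subgroup.zpowers z)) :=
      Nat.Coprime.pow_left _ ((Nat.Prime.coprime_iff_not_dvd Nat.prime_two).mpr hw)
    refine Nat.eq_one_of_dvd_coprimes hcop ?_ ?_
    · apply orderOf_dvd_of_pow_eq_one
      rw [← QuotientGroup.mk_pow, ← hk, pow_orderOf_eq_one]
      rfl
    · apply orderOf_dvd_of_pow_eq_one
      rw [← hj]
      have h3 : (QuotientGroup.mk (g ^ j) : G ⧸ Subgroup.zpowers z) = (QuotientGroup.mk g) ^ j := rfl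
      rw [h3, ← zpow_natCast, ← zpow_mul, mul_comm, zpow_mul, zpow_natCast, pow_orderOf_eq_one, one_zpow]
  rw [← hxy, QuotientGroup.mk_mul, h1, one_mul]

include hz hzz hz1 in
/-- Sums over regular elements. -/
theorem sum_regular_quot (F : G ⧸ Subgroup.zpowers z → ℂ) [Fintype (G ⧸ Subgroup.zpowers z)]
    [DecidablePred fun g : G => 2 ∣ orderOf g]
    [DecidablePred fun w : G ⧸ Subgroup.zpowers z => 2 ∣ orderOf w] :
    (∑ g : G, if 2 ∣ orderOf g then 0 else F (QuotientGroup.mk g)) =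
      ∑ w : G ⧸ Subgroup.zpowers z, if 2 ∣ orderOf w then 0 else F w := by
  classical
  have e1 : ∀ g : G, (if 2 ∣ orderOf g then 0 else F (QuotientGroup.mk g)) =
      if ¬ 2 ∣ orderOf g then F (QuotientGroup.mk g) else 0 := by
    intro g
    split_ifs <;> rfl
  have e2 : ∀ w : G ⧸ Subgroup.zpowers z, (if 2 ∣ orderOf w then 0 else F w) =
      if ¬ 2 ∣ orderOf w then F w else 0 := by
    intro w
    split_ifs <;> rfl
  simp only [e1, e2]
  rw [← Finset.sum_filter, ← Finset.sum_filter]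
  refine Finset.sum_bij (fun g _ => (QuotientGroup.mk g : G ⧸ Subgroup.zpowers z)) ?_ ?_ ?_ ?_
  · intro g hg
    have hg' := (Finset.mem_filter.mp hg).2
    refine Finset.mem_filter.mpr ⟨Finset.mem_univ _, fun hd => hg' ?_⟩
    exact hd.trans (orderOf_map_dvd (QuotientGroup.mk' (Subgroup.zpowers z)) g)
  · intro y hy y' hy' h
    have hyr := (Finset.mem_filter.mp hy).2
    have hyr' := (Finset.mem_filter.mp hy').2
    have h1 : y⁻¹ * y' ∈ Subgroup.zpowers z := QuotientGroup.eq.mp h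
    rcases mem_zpowers_of_sq hzz h1 with h2 | h2
    · exact (inv_mul_eq_one.mp h2)
    · exfalso
      have h3 : y' = z * y := by
        rw [← hz y, ← h2]
        group
      apply hyr'
      rw [h3]
      exact Cfsg.Agent.Lib.BlockT.Inflate2.dvd_orderOf_mul Nat.prime_two (hz y).symm
        (k := 1) (by rw [pow_one, sq, hzz]) hz1 hyr
  · intro w hw
    obtain ⟨y, hy, rfl⟩ := exists_regular_lift hz hzz hz1 w (Finset.mem_filter.mp hw).2
    exact ⟨y, Finset.mem_filter.mpr ⟨Finset.mem_univ _, hy⟩, rfl⟩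
  · intro g _
    rfl

section Inflation

variable [Fintype (G ⧸ Subgroup.zpowers z)] [Fintype (IrrCharacter (G ⧸ Subgroup.zpowers z))]

/-- Inflation of a character of the quotient. -/
noncomputable def infl (ψ : IrrCharacter (G ⧸ Subgroup.zpowers z)) : IrrCharacter G :=
  ⟨(ψ : G ⧸ Subgroup.zpowers z → ℂ) ∘ QuotientGroup.mk' (Subgroup.zpowers z),
    isIrrCharacter_comp _ (QuotientGroup.mk'_surjective _) ψ.2⟩

theorem infl_apply (ψ : IrrCharacter (G ⧸ Subgroup.zpowers z)) (g : G) :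
    ((infl ψ : IrrCharacter G) : G → ℂ) g = (ψ : G ⧸ Subgroup.zpowers z → ℂ) (QuotientGroup.mk g) := rfl

theorem infl_injective : Function.Injective (infl : IrrCharacter (G ⧸ Subgroup.zpowers z) → IrrCharacter G) := by
  intro a b h
  apply Subtype.ext
  funext w
  obtain ⟨g, rfl⟩ := QuotientGroup.mk_surjective w
  have := congrArg (fun χ : IrrCharacter G => (χ : G → ℂ) g) h
  exact this

theorem infl_mem (hM : IsPModular 2 M) {ψ : IrrCharacter (G ⧸ Subgroup.zpowers z)}
    (h : ψ ∈ principalBlock M (G ⧸ Subgroup.zpowers z)) :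
    infl ψ ∈ principalBlock M G ∧ ((infl ψ : IrrCharacter G) : G → ℂ) z = ((infl ψ : IrrCharacter G) : G → ℂ) 1 := by
  haveI := isPrime_of_pModular hM
  constructor
  · have hone : IsClassFunction (G ⧸ Subgroup.zpowers z) (fun _ => (1 : ℂ)) := fun _ _ => rfl
    exact Cfsg.Agent.Lib.BlockT.Inflate.sameBlock_comp (QuotientGroup.mk' (Subgroup.zpowers z))
      (QuotientGroup.mk'_surjective _) hone (isClassFunction_of_isIrrCharacter ψ.2) h
  · rw [infl_apply, infl_apply]
    have h1 : (QuotientGroup.mk z : G ⧸ Subgroup.zpowers z) = 1 :=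
      (QuotientGroup.eq_one_iff z).mpr (Subgroup.mem_zpowers z)
    rw [h1]
    rfl

include hz hzz hz1 in
theorem exists_infl (hM : IsPModular 2 M) {ζ : IrrCharacter G} (hζ : ζ ∈ principalBlock M G)
    (hζz : (ζ : G → ℂ) z = (ζ : G → ℂ) 1) :
    ∃ ψ ∈ principalBlock M (G ⧸ Subgroup.zpowers z), infl ψ = ζ := by
  classical
  haveI := isPrime_of_pModular hM
  have hπ := QuotientGroup.mk'_surjective (Subgroup.zpowers z)
  have hker : ∀ k ∈ (QuotientGroup.mk' (Subgroup.zpowers z)).ker, (ζ : G → ℂ) k = (ζ : G → ℂ) 1 := by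
    intro k hk
    rw [QuotientGroup.ker_mk'] at hk
    rcases mem_zpowers_of_sq hzz hk with rfl | rfl
    · rfl
    · exact hζz
  obtain ⟨φ, hφ, hφe⟩ := isIrrCharacter_descend _ hπ ζ.2 hker
  let ψ : IrrCharacter (G ⧸ Subgroup.zpowers z) := ⟨φ, hφ⟩
  have hinfl : infl ψ = ζ := Subtype.ext hφe.symm
  refine ⟨ψ, ?_, hinfl⟩
  have hP : (Subgroup.zpowers z).Normal := inferInstance
  have hpg : IsPGroup 2 (Subgroup.zpowers z) := by
    rw [IsPGroup.iff_card]
    exact ⟨1, by rw [card_zpowers' hzz hz1, pow_one]⟩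
  have hC : ∃ k : ℕ, (Subgroup.centralizer ((Subgroup.zpowers z : Subgroup G) : Set G)).index = 2 ^ k := by
    refine ⟨0, ?_⟩
    have htop : Subgroup.centralizer ((Subgroup.zpowers z : Subgroup G) : Set G) = ⊤ := by
      rw [eq_top_iff]
      intro g _
      rw [Subgroup.mem_centralizer_iff]
      intro k hk
      obtain ⟨n, rfl⟩ := Subgroup.mem_zpowers_iff.mp hk
      exact ((show Commute g z from hz g).zpow_right n).eq.symm
    rw [htop, Subgroup.index_top, pow_zero]
  have hreg := Cfsg.Agent.Lib.BlockT.Inflate2.sameBlock_of_regular hM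
    (χ := oneI (G ⧸ Subgroup.zpowers z)) (ψ := ψ) ?_
  · exact hreg
  intro w hw
  obtain ⟨y, hy, rfl⟩ := exists_regular_lift hz hzz hz1 w hw
  have hidx := Cfsg.Agent.Lib.BlockT.Inflate2.index_centralizer_mk Nat.prime_two hP hpg hC hy
  have e1 : centralChar ((ψ : IrrCharacter (G ⧸ Subgroup.zpowers z)) : G ⧸ Subgroup.zpowers z → ℂ)
      (QuotientGroup.mk y) = centralChar (ζ : G → ℂ) y := by
    rw [centralChar, centralChar, hidx]
    rw [← hinfl, infl_apply, infl_apply]
    rfl
  have e2 : centralChar ((oneI (G ⧸ Subgroup.zpowers z) : IrrCharacter _) : G ⧸ Subgroup.zpowers z → ℂ)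
      (QuotientGroup.mk y) = centralChar (fun _ : G => (1 : ℂ)) y := by
    rw [centralChar, centralChar, hidx]
    rfl
  rw [e1, e2]
  exact hζ y

include hz hzz hz1 in
open scoped Classical in
theorem sum_plus (hM : IsPModular 2 M) (y : G) :
    (∑ ζ : IrrCharacter G, if ζ ∈ principalBlock M G ∧ (ζ : G → ℂ) z = (ζ : G → ℂ) 1 then
      (ζ : G → ℂ) y * conj ((ζ : G → ℂ) y) else 0) =
    fB M (QuotientGroup.mk y : G ⧸ Subgroup.zpowers z) := by
  simp only [fB]
  rw [← Finset.sum_filter, ← Finset.sum_filter]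
  symm
  refine Finset.sum_bij (fun ψ _ => infl ψ) ?_ ?_ ?_ ?_
  · intro ψ hψ
    exact Finset.mem_filter.mpr ⟨Finset.mem_univ _, infl_mem hM (Finset.mem_filter.mp hψ).2⟩
  · intro a _ b _ h
    exact infl_injective h
  · intro ζ hζ
    obtain ⟨h1, h2⟩ := (Finset.mem_filter.mp hζ).2
    obtain ⟨ψ, hψ, rfl⟩ := exists_infl hz hzz hz1 hM h1 h2
    exact ⟨ψ, Finset.mem_filter.mpr ⟨Finset.mem_univ _, hψ⟩, rfl⟩
  · intro ψ _
    rfl

include hz hzz hz1 in
/-- The regular sums of `G` and its quotient by a central involution agree. -/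
theorem LL_quot (hM : IsPModular 2 M) : LL G M = LL (G ⧸ Subgroup.zpowers z) M := by
  classical
  have hcard : (Nat.card G : ℂ) = (Nat.card (G ⧸ Subgroup.zpowers z) : ℂ) * 2 := by
    have h1 := Subgroup.card_eq_card_quotient_mul_card_subgroup (Subgroup.zpowers z)
    rw [card_zpowers' hzz hz1] at h1
    exact_mod_cast h1
  have hq : (Nat.card (G ⧸ Subgroup.zpowers z) : ℂ) ≠ 0 := Nat.cast_ne_zero.mpr Nat.card_pos.ne'
  have h1 : ∀ g : G, (if 2 ∣ orderOf g then 0 else fB M g) =
      if 2 ∣ orderOf g then 0 else (fun w : G ⧸ Subgroup.zpowers z => 2 * fB M w) (QuotientGroup.mk g) := by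
    intro g
    split_ifs with hg
    · rfl
    · rw [fB_eq_two_mul hM hz hzz hz1 hg]
      have := sum_plus hz hzz hz1 hM g
      simp only
      rw [← this]
  simp only [LL]
  simp only [h1]
  rw [sum_regular_quot hz hzz hz1 (fun w : G ⧸ Subgroup.zpowers z => 2 * fB M w), hcard]
  have h2 : ∀ w : G ⧸ Subgroup.zpowers z, (if 2 ∣ orderOf w then 0 else 2 * fB M w) =
      2 * (if 2 ∣ orderOf w then 0 else fB M w) := by
    intro w
    split_ifs <;> simp
  simp only [h2]
  rw [← Finset.mul_sum]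
  field_simp

end Inflation

end Quotient

end Cfsg.Agent.Lib.BlockT.Q8Block
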