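import Mathlib
import Cfsg.Agent.Lib.BlockT.CenterP
import Cfsg.Agent.Lib.BlockP.Defect
import Cfsg.Agent.Lib.BlockP.InducedDeg
import Cfsg.Agent.Lib.CharX.Conj

/-!
# Values of characters on the centralizer of a normal subgroup

* `exists_mem_block_over`: every irreducible character of a normal `p`-subgroup lies under a member
  of each block.
* `isIntegral_twisted_avg`: `|P|⁻¹ ∑_{x ∈ P} conj β(x) χ(xy)` is an algebraic integer for `y`
  centralizing `P`.
* `isIntegral_div_deg`: `χ(y) / β(1)` is an algebraic integer for `y` centralizing `P` and `β` a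
  constituent of `χ|_P`.
-/

set_option linter.unusedSectionVars false
set_option autoImplicit false
set_option linter.style.haveILetI false
set_option linter.unusedVariables false

namespace Cfsg.Agent.Lib.BlockT.Reynolds

open Cfsg MonoidAlgebra
open Cfsg.Agent.Lib.Char.Basic Cfsg.Agent.Lib.Char.Ortho Cfsg.Agent.Lib.Char.Complete
open Cfsg.Agent.Lib.Char.Conj Cfsg.Agent.Lib.Char.Clifford Cfsg.Agent.Lib.Char.CliffordCorr
open Cfsg.Agent.Lib.Char.Induced Cfsg.Agent.Lib.Char.Linear
open Cfsg.Agent.Lib.BlockT.CharSum Cfsg.Agent.Lib.BlockT.Normal Cfsg.Agent.Lib.BlockT.NormalP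
open Cfsg.Agent.Lib.BlockT.SylowIn Cfsg.Agent.Lib.BlockT.Inflate Cfsg.Agent.Lib.BlockT.Inflate2
open Cfsg.Agent.Lib.Blocks.Local Cfsg.Agent.Lib.Blocks.Central Cfsg.Agent.Lib.Blocks.Brauer
open Cfsg.Agent.Lib.Blocks.Weak Cfsg.Agent.Lib.Blocks.PPart
open Cfsg.Agent.Lib.Blocks.Defect Cfsg.Agent.Lib.Blocks.Defect2
open scoped ComplexConjugate

universe u

variable {G : Type u} [Group G] [Fintype G] {P : Subgroup G} [Fintype P] {M : Ideal AlgInt} {p : ℕ}

/-- Every irreducible character of a `p`-subgroup lies under a member of each block. -/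
theorem exists_mem_block_over [hp' : Fact p.Prime] (hM : IsPModular p M) (hP : IsPGroup p P)
    {B : Set (IrrCharacter G)} (hB : IsPBlock M B) (β : IrrCharacter P) :
    ∃ χ ∈ B, classInner (fun n : P => (χ : G → ℂ) n) (β : P → ℂ) ≠ 0 := by
  classical
  haveI := isPrime_of_pModular hM
  have := Cfsg.Agent.Lib.Char.Ortho.finite_irrCharacter (G := G)
  letI := Fintype.ofFinite (IrrCharacter G)
  obtain ⟨θ, hθB⟩ := isPBlock_nonempty hB
  by_contra hcon
  push Not at hcon
  -- the sum over `P` of `β ⋅ e_B`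
  have h1 : ∑ x : P, (β : P → ℂ) x * blockCoeff B (x : G) = blockCoeff B 1 * (β : P → ℂ) 1 := by
    rw [Finset.sum_eq_single (1 : P)]
    · simp [mul_comm]
    · intro x _ hx
      have hx1 : (x : G) ≠ 1 := fun h => hx (Subtype.ext h)
      obtain ⟨k, hk⟩ := hP x
      have hk' : (x : G) ^ p ^ k = 1 := by
        have := congrArg Subtype.val hk
        simpa using this
      have hd : p ∣ orderOf (x : G) := by
        have h2 := orderOf_dvd_of_pow_eq_one hk'
        obtain ⟨j, -, hj⟩ := (Nat.dvd_prime_pow hM.1).mp h2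
        have hj0 : j ≠ 0 := by
          rintro rfl
          rw [pow_zero, orderOf_eq_one_iff] at hj
          exact hx1 hj
        rw [hj]
        exact dvd_pow_self p hj0
      rw [blockCoeff_eq_zero hM hB hd, mul_zero]
    · intro h
      exact absurd (Finset.mem_univ _) h
  have h2 : ∑ x : P, (β : P → ℂ) x * blockCoeff B (x : G) = 0 := by
    simp only [blockCoeff_eq_sum]
    have e : ∀ x : P, (β : P → ℂ) x * ((Nat.card G : ℂ)⁻¹ *
        ∑ χ : IrrCharacter G, if χ ∈ B then (χ : G → ℂ) 1 * conj ((χ : G → ℂ) x) else 0) =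
        (Nat.card G : ℂ)⁻¹ * ∑ χ : IrrCharacter G, if χ ∈ B then
          (χ : G → ℂ) 1 * ((β : P → ℂ) x * conj ((χ : G → ℂ) x)) else 0 := by
      intro x
      rw [mul_left_comm, Finset.mul_sum]
      congr 1
      refine Finset.sum_congr rfl fun χ _ => ?_
      split_ifs
      · ring
      · simp
    simp only [e]
    rw [← Finset.mul_sum, Finset.sum_comm]
    have e2 : ∀ χ : IrrCharacter G, ∑ x : P, (if χ ∈ B then (χ : G → ℂ) 1 *
        ((β : P → ℂ) x * conj ((χ : G → ℂ) x)) else 0) = 0 := by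
      intro χ
      split_ifs with hχ
      · rw [← Finset.mul_sum]
        have h3 := hcon χ hχ
        rw [classInner_def] at h3
        have hP0 : (Nat.card P : ℂ)⁻¹ ≠ 0 := inv_ne_zero (Nat.cast_ne_zero.mpr Nat.card_pos.ne')
        have h4 := (mul_eq_zero.mp h3).resolve_left hP0
        have h5 := congrArg (starRingEnd ℂ) h4
        rw [map_sum, map_zero] at h5
        have h6 : ∑ x : P, (β : P → ℂ) x * conj ((χ : G → ℂ) x) = 0 := by
          rw [← h5]
          refine Finset.sum_congr rfl fun x _ => ?_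
          rw [map_mul, Complex.conj_conj, mul_comm]
        rw [h6, mul_zero]
      · simp
    simp only [e2, Finset.sum_const_zero, mul_zero]
  rw [h2] at h1
  have hβ1 := irr_one_ne_zero β.2
  have h3 : blockCoeff B 1 = 0 := (mul_eq_zero.mp h1.symm).resolve_right hβ1
  rw [blockCoeff_eq_sum] at h3
  have hG0 : (Nat.card G : ℂ)⁻¹ ≠ 0 := inv_ne_zero (Nat.cast_ne_zero.mpr Nat.card_pos.ne')
  have h4 := (mul_eq_zero.mp h3).resolve_left hG0
  have h5 : ∀ χ : IrrCharacter G, (if χ ∈ B then (χ : G → ℂ) 1 * conj ((χ : G → ℂ) 1) else 0) =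
      (((if χ ∈ B then charDegree (χ : G → ℂ) ^ 2 else 0 : ℕ)) : ℂ) := by
    intro χ
    split_ifs
    · have hd := Cfsg.Agent.Lib.Char.Degree.charDegree_natCast (isCharacter_of_isIrrCharacter χ.2)
      rw [← hd]
      simp [sq]
    · simp
  simp only [h5] at h4
  have h6 : (∑ χ : IrrCharacter G, (if χ ∈ B then charDegree (χ : G → ℂ) ^ 2 else 0) : ℕ) = 0 := by
    exact_mod_cast h4
  have h7 := Finset.sum_eq_zero_iff.mp h6 θ (Finset.mem_univ _)
  rw [if_pos hθB] at h7
  exact (Cfsg.Agent.Lib.Char.Degree.charDegree_pos θ.2).ne' (by simpa using h7)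

/-- The twisted average over a subgroup centralized by `y` is an algebraic integer. -/
theorem isIntegral_twisted_avg {χ : G → ℂ} (hχ : IsCharacter G χ) {β : P → ℂ} (hβ : IsCharacter P β)
    {y : G} (hy : y ∈ Subgroup.centralizer (P : Set G)) :
    IsIntegral ℤ ((Nat.card P : ℂ)⁻¹ * ∑ x : P, conj (β x) * χ ((x : G) * y)) := by
  classical
  let Φ : G × P → ℂ := (χ ∘ (MonoidHom.fst G P)) * ((fun u : P => conj (β u)) ∘ (MonoidHom.snd G P))
  have hΦ : IsCharacter (G × P) Φ := isCharacter_mul (isCharacter_comp _ hχ)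
    (isCharacter_comp _ (Cfsg.Agent.Lib.CharX.Conj.isCharacter_conj hβ))
  let f : P →* G × P := MonoidHom.prod P.subtype (MonoidHom.id P)
  have hf : Function.Injective f := fun a b h => (Prod.ext_iff.mp h).2
  let D : Subgroup (G × P) := f.range
  let e : P ≃ D := (MonoidHom.ofInjective hf).toEquiv
  letI : Fintype D := Fintype.ofEquiv P e
  have hcomm : ∀ u ∈ D, Commute ((y, 1) : G × P) u := by
    rintro _ ⟨x, rfl⟩
    refine Prod.ext ?_ ?_
    · exact (Subgroup.mem_centralizer_iff.mp hy x x.2).symm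
    · simp [f]
  have h := Cfsg.Agent.Lib.BlockP.Defect.isIntegral_avg hΦ (y, 1) D hcomm
  have hcard : Nat.card D = Nat.card P := (Nat.card_congr e).symm
  rw [hcard] at h
  convert h using 2
  refine Fintype.sum_equiv e _ _ fun x => ?_
  have hex : ((e x : D) : G × P) = f x := rfl
  rw [hex]
  simp only [Φ, f, Pi.mul_apply, Function.comp_apply, MonoidHom.coe_fst, MonoidHom.coe_snd,
    Prod.fst_mul, Prod.snd_mul, MonoidHom.prod_apply, Subgroup.coe_subtype, MonoidHom.id_apply, one_mul]
  rw [mul_comm, (Subgroup.mem_centralizer_iff.mp hy x x.2)]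

/-- **Lemma.** If `β` is a constituent of `χ|_P` with `P` normal and `y` centralizes `P`, then
`χ(y) / β(1)` is an algebraic integer. -/
theorem isIntegral_div_deg (hN : P.Normal) {χ : IrrCharacter G} {β : IrrCharacter P}
    (hcon : classInner (fun n : P => (χ : G → ℂ) n) (β : P → ℂ) ≠ 0) {y : G}
    (hy : y ∈ Subgroup.centralizer (P : Set G)) :
    IsIntegral ℤ ((χ : G → ℂ) y / (β : P → ℂ) 1) := by
  classical
  have hχ1 := irr_one_ne_zero χ.2
  have hβ1 := irr_one_ne_zero β.2
  have := Cfsg.Agent.Lib.Char.Ortho.finite_irrCharacter (G := P)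
  letI := Fintype.ofFinite (IrrCharacter P)
  set A : Set (IrrCharacter P) := orbitSet hN {β} with hA
  have hβA : β ∈ A := subset_orbitSet hN _ rfl
  -- the idempotent of the orbit
  have hinv : ∀ (t : G) (n : P), blockCoeff A ⟨t * n * t⁻¹, hN.conj_mem n n.2 t⟩ = blockCoeff A n := by
    intro t n
    have h := blockCoeff_orbitSet_conj hN {β} t n
    rw [← h]
    congr 1
  have h1 : (∑ n : P, blockCoeff A n * (χ : G → ℂ) n) / (χ : G → ℂ) 1 = 1 := by
    rw [sum_mul_eq_of_constituent hN χ.2 β.2 hcon _ hinv, sum_blockCoeff_irr, if_pos hβA]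
  have hcen : IsCentral (ofFun (Cfsg.extendByZero P (blockCoeff A)) : GA G) := by
    intro g h
    simp only [coeff_ofFun]
    exact extendByZero_orbitCoeff_conj hN {β} g h
  have h2 := lin_central_mul χ.2 hcen (single y 1)
  rw [lin_mul_single, lin_single, one_mul] at h2
  have h3 : ∑ h : G, (ofFun (Cfsg.extendByZero P (blockCoeff A)) : GA G).coeff h *
      (χ : G → ℂ) (h * y) = ∑ x : P, blockCoeff A x * (χ : G → ℂ) ((x : G) * y) :=
    sum_extendByZero_mul (N := P) _ (fun h => (χ : G → ℂ) (h * y))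
  have h4 : omega (χ : G → ℂ) (ofFun (Cfsg.extendByZero P (blockCoeff A)) : GA G) = 1 := by
    rw [omega, lin_apply]
    have h5 : ∑ h : G, (ofFun (Cfsg.extendByZero P (blockCoeff A)) : GA G).coeff h *
        (χ : G → ℂ) h = ∑ x : P, blockCoeff A x * (χ : G → ℂ) x :=
      sum_extendByZero_mul (N := P) _ (fun h => (χ : G → ℂ) h)
    rw [h5]
    exact h1
  rw [h3, h4, one_mul] at h2
  -- expand the idempotent
  have h6 : (χ : G → ℂ) y = (β : P → ℂ) 1 * ∑ ψ : IrrCharacter P, if ψ ∈ A then
      ((Nat.card P : ℂ)⁻¹ * ∑ x : P, conj ((ψ : P → ℂ) x) * (χ : G → ℂ) ((x : G) * y)) else 0 := by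
    rw [← h2]
    simp only [blockCoeff_eq_sum]
    rw [Finset.mul_sum]
    calc ∑ x : P, ((Nat.card P : ℂ)⁻¹ * ∑ ψ : IrrCharacter P, if ψ ∈ A then
            (ψ : P → ℂ) 1 * conj ((ψ : P → ℂ) x) else 0) * (χ : G → ℂ) ((x : G) * y)
        = ∑ x : P, ∑ ψ : IrrCharacter P, if ψ ∈ A then (β : P → ℂ) 1 * ((Nat.card P : ℂ)⁻¹ *
            (conj ((ψ : P → ℂ) x) * (χ : G → ℂ) ((x : G) * y))) else 0 := by
          refine Finset.sum_congr rfl fun x _ => ?_
          rw [Finset.mul_sum, Finset.sum_mul]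
          refine Finset.sum_congr rfl fun ψ _ => ?_
          split_ifs with hψ
          · obtain ⟨g, θ, hθ, rfl⟩ := hψ
            rw [Set.mem_singleton_iff] at hθ
            subst hθ
            have e1 : ((conjIrr hN g θ : IrrCharacter P) : P → ℂ) 1 = (θ : P → ℂ) 1 :=
              conjOn_apply_one hN g θ
            rw [e1]
            ring
          · simp
      _ = ∑ ψ : IrrCharacter P, ∑ x : P, if ψ ∈ A then (β : P → ℂ) 1 * ((Nat.card P : ℂ)⁻¹ *
            (conj ((ψ : P → ℂ) x) * (χ : G → ℂ) ((x : G) * y))) else 0 := Finset.sum_comm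
      _ = _ := by
          refine Finset.sum_congr rfl fun ψ _ => ?_
          split_ifs with hψ
          · rw [Finset.mul_sum, Finset.mul_sum]
          · simp
  rw [h6, mul_comm, mul_div_assoc, div_self hβ1, mul_one]
  refine IsIntegral.sum _ fun ψ _ => ?_
  split_ifs with hψ
  · exact isIntegral_twisted_avg (isCharacter_of_isIrrCharacter χ.2)
      (isCharacter_of_isIrrCharacter ψ.2) hy
  · exact isIntegral_zero

end Cfsg.Agent.Lib.BlockT.Reynolds
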